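import Cfsg.Agent.H3.CoSimple
import Cfsg.Agent.H1.HSGraph
import Cfsg.Agent.S0410
import Cfsg.Agent.S0363

set_option autoImplicit false

namespace H3
open Cfsg MulAction

/-- the 22 points -/
abbrev P22 : Type := {p : GolayPt // p ≠ none ∧ p ≠ some 0}

/-- the octad attached to a hexad -/
def oct (b : Finset P22) : Finset GolayPt :=
  insert none (insert (some 0) (b.map (Function.Embedding.subtype _)))

theorem mem_oct {b : Finset P22} {p : P22} : p.1 ∈ oct b ↔ p ∈ b := by
  simp [oct, p.2.1, p.2.2]

theorem none_mem_oct (b : Finset P22) : none ∈ oct b := by simp [oct]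

theorem zero_mem_oct (b : Finset P22) : some 0 ∈ oct b := by simp [oct]

theorem card_oct (b : Finset P22) : (oct b).card = b.card + 2 := by
  rw [oct, Finset.card_insert_of_notMem (by simp), Finset.card_insert_of_notMem (by simp),
    Finset.card_map]

theorem oct_inter (b c : Finset P22) : oct b ∩ oct c = oct (b ∩ c) := by
  ext p
  by_cases h1 : p = none
  · simp [h1, none_mem_oct]
  by_cases h2 : p = some 0
  · simp [h2, zero_mem_oct]
  rw [Finset.mem_inter, mem_oct (p := ⟨p, h1, h2⟩), mem_oct (p := ⟨p, h1, h2⟩),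
    mem_oct (p := ⟨p, h1, h2⟩), Finset.mem_inter]

theorem oct_subtype {o : Finset GolayPt} (h1 : none ∈ o) (h2 : some 0 ∈ o) :
    oct (o.subtype _) = o := by
  ext p
  by_cases a : p = none
  · simp [a, none_mem_oct, h1]
  by_cases b : p = some 0
  · simp [b, zero_mem_oct, h2]
  rw [mem_oct (p := ⟨p, a, b⟩), Finset.mem_subtype]

theorem oct_injective : Function.Injective oct := by
  intro b c h
  ext p
  rw [← mem_oct, h, mem_oct]

theorem oct_subset {b c : Finset P22} : oct b ⊆ oct c ↔ b ⊆ c := by
  rw [← Finset.inter_eq_left, oct_inter, oct_injective.eq_iff, Finset.inter_eq_left]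

/-- the standard `S(3,6,22)` -/
def B22 : Set (Finset P22) := {b | oct b ∈ octads}

theorem steiner_B22 : IsSteinerSystem 3 6 B22 := by
  refine ⟨fun b hb => ?_, fun s hs => ?_⟩
  · have := hb.2
    rw [card_oct] at this; omega
  · obtain ⟨o, ⟨h1, h2⟩, h3⟩ := Cfsg.Agent.S0363.result.2 (oct s) (by rw [card_oct, hs])
    have e := oct_subtype (h2 (none_mem_oct s)) (h2 (zero_mem_oct s))
    refine ⟨o.subtype _, ⟨by change _ ∈ octads; rwa [e], oct_subset.1 (by rwa [e])⟩, ?_⟩
    rintro b ⟨hb, hsb⟩
    exact oct_injective ((h3 _ ⟨hb, oct_subset.2 hsb⟩).trans e.symm)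

theorem card_P22 : Fintype.card P22 = 22 := by decide +kernel

theorem dot_w3 (x : GolayPt → ℤ) (p : GolayPt) : dotInt x (w3 p).1 = ∑ i, x i - 4 * x p := by
  have h := dot_v5 x p
  rw [v5, AddSubgroup.coe_add, dotInt_add_right, dot_e8] at h
  omega

theorem hs_graph {α : Type*} [Fintype α] (hα : Fintype.card α = 22) {B : Set (Finset α)}
    (hB : IsSteinerSystem 3 6 B) :
    ∃ H : Subgroup (pointBlockGraph B ≃g pointBlockGraph B), IsHS H := by
  classical
  obtain ⟨e, he⟩ := Cfsg.Agent.S0410.result hα card_P22 hB steiner_B22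
  have hb : ∀ b : B, oct (b.1.image e) ∈ octads := fun b => by
    have : b.1.image e ∈ B22 := he ▸ ⟨b.1, b.2, rfl⟩
    exact this
  let U : Λ := v2 none (some 0) 1 1 (by norm_num)
  let vec : Option (α ⊕ B) → Λ := fun x => match x with
    | none => U
    | some (Sum.inl a) => w3 (e a).1
    | some (Sum.inr b) => twoVec _ (hb b).1
  have hmem : ∀ x, vec x ∈ X100 := by
    rintro (_ | a | b) <;> rw [mem_X100]
    · exact Or.inl rfl
    · exact Or.inr (Or.inl ⟨_, (e a).2.1, (e a).2.2, rfl⟩)
    · exact Or.inr (Or.inr ⟨_, (hb b).1, (hb b).2, none_mem_oct _, zero_mem_oct _, rfl⟩)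
  have hnone : ∀ x, (vec x).1 none = match x with
      | none => 4
      | some (Sum.inl _) => 1
      | some (Sum.inr _) => 2 := by
    rintro (_ | a | b)
    · simp [vec, U, v2_apply]
    · simp [vec, w3_apply, (e a).2.1.symm]
    · simp [vec, twoVec_apply, none_mem_oct]
  have hinj : Function.Injective vec := by
    intro x y h
    have h1 := hnone x
    have h2 := hnone y
    rw [h, h2] at h1
    rcases x with _ | a | b <;> rcases y with _ | a' | b' <;> simp at h1
    · rfl
    · rw [e.injective (Subtype.ext (w3_inj h))]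
    · have := Finset.image_injective e.injective (oct_injective (twoVec_inj h))
      rw [Subtype.ext this]
  have hsurj : ∀ x ∈ X100, ∃ y, vec y = x := by
    intro x hx
    rcases mem_X100.1 hx with rfl | ⟨j, h1, h2, rfl⟩ | ⟨o, ho, h8, h1, h2, rfl⟩
    · exact ⟨none, rfl⟩
    · exact ⟨some (Sum.inl (e.symm ⟨j, h1, h2⟩)), by simp [vec]⟩
    · have h3 : o.subtype _ ∈ B22 := by
        change _ ∈ octads; rw [oct_subtype h1 h2]; exact ⟨ho, h8⟩
      rw [← he] at h3
      obtain ⟨b, hbB, h4⟩ := h3
      refine ⟨some (Sum.inr ⟨b, hbB⟩), Λ_ext fun i => ?_⟩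
      simp only [vec, twoVec_apply]
      simp only at h4
      rw [h4, oct_subtype h1 h2]
  have hUw : ∀ a, dotInt (w3 (e a).1).1 U.1 = 8 := fun a => by
    rw [dot_v2]; simp [w3_apply, (e a).2.1.symm, (e a).2.2.symm]
  have hUt : ∀ b : B, dotInt (twoVec _ (hb b).1).1 U.1 = 16 := fun b => by
    rw [dot_v2]; simp [twoVec_apply, none_mem_oct, zero_mem_oct]
  have hwt : ∀ a (b : B), dotInt (twoVec _ (hb b).1).1 (w3 (e a).1).1 = 8 ↔ a ∈ b.1 := fun a b => by
    rw [dot_w3]
    simp only [twoVec_apply, sum_ite_mem_const, (hb b).2, mem_oct, Finset.mem_image,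
      EmbeddingLike.apply_eq_iff_eq, exists_eq_right]
    split_ifs with h <;> simp [h]
  have hadj : ∀ x y, (pointBlockGraph B).Adj x y ↔ dotInt (vec x).1 (vec y).1 = 8 := by
    rintro (_ | a | b) (_ | a' | b')
    · simp only [vec, dotInt_self, H1.pb_nn, U, norm_v2 (show none ≠ some (0 : ZMod 23) by simp)]
      norm_num
    · simp only [vec, H1.pb_np, true_iff]; rw [dotInt_comm, hUw]
    · simp only [vec, H1.pb_nb, false_iff]; rw [dotInt_comm, hUt]; norm_num
    · simp only [vec, H1.pb_pn, hUw]
    · simp only [vec, H1.pb_pp, false_iff, dot_w3, w3_apply, sum_ite_pt]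
      split_ifs <;> norm_num
    · simp only [vec, H1.pb_pb]; rw [dotInt_comm, hwt]
    · simp only [vec, H1.pb_bn, false_iff, hUt]; norm_num
    · simp only [vec, H1.pb_bp, hwt]
    · simp only [vec, H1.pb_bb hB (by norm_num), dot_twoVec_twoVec, oct_inter, card_oct,
        ← Finset.image_inter _ _ e.injective, Finset.card_image_of_injective _ e.injective,
        Finset.disjoint_iff_inter_eq_empty, ← Finset.card_eq_zero]
      omega
  let E : Option (α ⊕ B) ≃ X100 := Equiv.ofBijective (fun x => ⟨vec x, hmem x⟩)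
    ⟨fun x y h => hinj (congrArg Subtype.val h), fun x =>
      let ⟨y, hy⟩ := hsurj x.1 x.2; ⟨y, Subtype.ext hy⟩⟩
  have hE : ∀ x : X100, vec (E.symm x) = x.1 := fun x => congrArg Subtype.val (E.apply_symm_apply x)
  let act : HSs → Option (α ⊕ B) → Option (α ⊕ B) := fun g x =>
    E.symm ⟨g.1 • vec x, HSs_smul_X100 g.2 (hmem x)⟩
  have hact : ∀ g x, vec (act g x) = g.1 • vec x := fun g x => hE _
  let φ : HSs →* (pointBlockGraph B ≃g pointBlockGraph B) :=
    { toFun := fun g =>
        { toFun := act g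
          invFun := act g⁻¹
          left_inv := fun x => hinj (by rw [hact, hact]; simp)
          right_inv := fun x => hinj (by rw [hact, hact]; simp)
          map_rel_iff' := fun {x y} => by
            simp only [Equiv.coe_fn_mk, hadj, hact, dot_smul] }
      map_one' := by
        ext x : 1
        exact hinj (by change vec (act 1 x) = vec x; rw [hact]; simp)
      map_mul' := fun g h => by
        ext x : 1
        exact hinj (by
          change vec (act (g * h) x) = vec (act g (act h x))
          rw [hact, hact, hact, Subgroup.coe_mul, mul_smul]) }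
  have hs := simple_HSs
  have hφ : Function.Injective φ := by
    rw [← MonoidHom.ker_eq_bot_iff]
    refine (IsSimpleGroup.eq_bot_or_eq_top_of_normal φ.ker inferInstance).resolve_right fun h => ?_
    obtain ⟨g, hg, h1⟩ := HSs_trans (x := w3 (some 1)) (mem_X100.2 (Or.inr (Or.inl
      ⟨_, by simp, by decide, rfl⟩)))
    obtain ⟨y, hy⟩ := hsurj (w3 (some 1)) (mem_X100.2 (Or.inr (Or.inl
      ⟨_, by simp, by decide, rfl⟩)))
    have h2 : φ ⟨g, hg⟩ = 1 := by rw [← MonoidHom.mem_ker, h]; trivial
    have h3 : act ⟨g, hg⟩ y = y := congrArg (fun f : pointBlockGraph B ≃g pointBlockGraph B => f y) h2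
    have h4 := hact ⟨g, hg⟩ y
    rw [h3, hy, h1] at h4
    have := congrArg (fun v : Λ => v.1 none) h4
    simp [w3_apply, v2_apply] at this
  exact ⟨φ.range, (MonoidHom.ofInjective hφ).symm.isSimpleGroup,
    (Nat.card_congr (MonoidHom.ofInjective hφ).toEquiv).symm.trans card_HSs⟩

end H3
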